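import Mathlib
import Cfsg.Agent.Lib.Fi24S3.Fin

/-!
# Elements of order 3 of `Fi₂₄` of equal width are conjugate
-/

set_option autoImplicit false
set_option linter.all false

namespace Cfsg.Agent.Lib.Fi24S3

open Cfsg.Agent.Lib.F24Cl Cfsg.Spor
open Cfsg.Agent.Lib.Fi24Scan45 Cfsg.Agent.Lib.CoxCert Cfsg.Agent.Lib.F24Base

/-- The width of the centraliser of an element. -/
noncomputable abbrev wdE (x : Fi24) : ℕ :=
  Cfsg.commutingWidth (DD ∩ (Subgroup.centralizer ((Subgroup.zpowers x : Subgroup Fi24) : Set Fi24) : Set Fi24))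

theorem wdE_conj (g x : Fi24) : wdE (g * x * g⁻¹) = wdE x := by
  have h1 := width_conjS (D := DD) (fun g d hd => by
    obtain ⟨a, rfl⟩ := mem_DD.mp hd
    exact mem_DD.mpr ⟨g * a, by group⟩) (Subgroup.zpowers x) g
  have e : (Subgroup.zpowers x).map (MulAut.conj g).toMonoidHom = Subgroup.zpowers (g * x * g⁻¹) := by
    rw [MonoidHom.map_zpowers]
    rfl
  rw [e] at h1
  exact h1

theorem wv_inj : ∀ i j : Fin 5, wv i = wv j → i = j := by
  decide

/-- An element of order 3 is conjugate to the root of its width. -/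
theorem conj_root {x : Fi24} (h3 : x ^ 3 = 1) (h1 : x ≠ 1) : ∃ i : Fin 5, wdE x = wv i ∧ ∃ g : Fi24, g * x * g⁻¹ = rho i := by
  obtain ⟨i, g, hg⟩ := cover_rep h3 h1
  refine ⟨i, ?_, g, hg⟩
  rw [← wdE_conj g x, hg]
  exact rho_width i

/-- Elements of order 3 of equal width are conjugate. -/
theorem conj_of_width {x y : Fi24} (hx3 : x ^ 3 = 1) (hx1 : x ≠ 1) (hy3 : y ^ 3 = 1) (hy1 : y ≠ 1) (hw : wdE x = wdE y) :
    ∃ g : Fi24, g * x * g⁻¹ = y := by
  obtain ⟨i, hi, g, hg⟩ := conj_root hx3 hx1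
  obtain ⟨j, hj, h, hh⟩ := conj_root hy3 hy1
  have e : i = j := wv_inj _ _ (by rw [← hi, ← hj, hw])
  subst e
  refine ⟨h⁻¹ * g, ?_⟩
  calc h⁻¹ * g * x * (h⁻¹ * g)⁻¹ = h⁻¹ * (g * x * g⁻¹) * h := by group
    _ = h⁻¹ * (h * y * h⁻¹) * h := by rw [hg, hh]
    _ = y := by group

end Cfsg.Agent.Lib.Fi24S3
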